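import Cfsg.Agent.Lib.SchurMult.JThree.Engine

/-! Kernel checks for the multiplier of the third Janko group. -/

set_option autoImplicit false
set_option maxRecDepth 100000

namespace Cfsg.Agent.Lib.SchurMult.JThree

open Cfsg.Agent.Lib.JankoThree

theorem allTwo : dataTwo.allOK = true := by decide +kernel

theorem lettersTwo : lettersOK gensTwo = true ∧ lettersOK conjTwo = true := by decide +kernel

theorem eqnTwo : dataTwo.eqs.all (eqnOK gensTwo conjTwo) = true := by decide +kernel

theorem sortTwo : sortOK dataTwo sortedTwo keysTwo = true := by decide +kernel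

theorem relTwo : ∀ q ∈ [((0, 28) : ℕ × ℕ)], relOK dataTwo gensTwo q.1 q.2 = true := by decide +kernel

theorem keyTwo0 : keyOK dataTwo gensTwo sortedTwo keysTwo 0 32 = true := by decide +kernel

theorem keyTwo1 : keyOK dataTwo gensTwo sortedTwo keysTwo 32 32 = true := by decide +kernel

theorem keyTwo2 : keyOK dataTwo gensTwo sortedTwo keysTwo 64 32 = true := by decide +kernel

theorem keyTwo3 : keyOK dataTwo gensTwo sortedTwo keysTwo 96 32 = true := by decide +kernel

theorem keyTwo : ∀ q ∈ [((0, 32) : ℕ × ℕ), ((32, 32) : ℕ × ℕ), ((64, 32) : ℕ × ℕ), ((96, 32) : ℕ × ℕ)],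
    keyOK dataTwo gensTwo sortedTwo keysTwo q.1 q.2 = true := by
  simp only [List.forall_mem_cons, List.not_mem_nil, IsEmpty.forall_iff, implies_true, and_true]
  exact ⟨keyTwo0, keyTwo1, keyTwo2, keyTwo3⟩

theorem coverTwo : ∀ k < dataTwo.p ^ dataTwo.n, ∃ q ∈ [((0, 32) : ℕ × ℕ), ((32, 32) : ℕ × ℕ), ((64, 32) : ℕ × ℕ), ((96, 32) : ℕ × ℕ)], q.1 ≤ k ∧ k < q.1 + q.2 := by
  intro k hk
  have hk : k < 128 := hk
  rcases (show (0 ≤ k ∧ k < 32) ∨ (32 ≤ k ∧ k < 64) ∨ (64 ≤ k ∧ k < 96) ∨ (96 ≤ k ∧ k < 128) by omega) with h | h | h | h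
  · exact ⟨(0, 32), by simp, h⟩
  · exact ⟨(32, 32), by simp, h⟩
  · exact ⟨(64, 32), by simp, h⟩
  · exact ⟨(96, 32), by simp, h⟩

theorem allThree : dataThree.allOK = true := by decide +kernel

theorem lettersThree : lettersOK gensThree = true ∧ lettersOK conjThree = true := by decide +kernel

theorem eqnThree : dataThree.eqs.all (eqnOK gensThree conjThree) = true := by decide +kernel

theorem sortThree : sortOK dataThree sortedThree keysThree = true := by decide +kernel

theorem relThree : ∀ q ∈ [((0, 15) : ℕ × ℕ)], relOK dataThree gensThree q.1 q.2 = true := by decide +kernel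

theorem keyThree0 : keyOK dataThree gensThree sortedThree keysThree 0 50 = true := by decide +kernel

theorem keyThree1 : keyOK dataThree gensThree sortedThree keysThree 50 50 = true := by decide +kernel

theorem keyThree2 : keyOK dataThree gensThree sortedThree keysThree 100 50 = true := by decide +kernel

theorem keyThree3 : keyOK dataThree gensThree sortedThree keysThree 150 50 = true := by decide +kernel

theorem keyThree4 : keyOK dataThree gensThree sortedThree keysThree 200 43 = true := by decide +kernel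

theorem keyThree : ∀ q ∈ [((0, 50) : ℕ × ℕ), ((50, 50) : ℕ × ℕ), ((100, 50) : ℕ × ℕ), ((150, 50) : ℕ × ℕ), ((200, 43) : ℕ × ℕ)],
    keyOK dataThree gensThree sortedThree keysThree q.1 q.2 = true := by
  simp only [List.forall_mem_cons, List.not_mem_nil, IsEmpty.forall_iff, implies_true, and_true]
  exact ⟨keyThree0, keyThree1, keyThree2, keyThree3, keyThree4⟩

theorem coverThree : ∀ k < dataThree.p ^ dataThree.n, ∃ q ∈ [((0, 50) : ℕ × ℕ), ((50, 50) : ℕ × ℕ), ((100, 50) : ℕ × ℕ), ((150, 50) : ℕ × ℕ), ((200, 43) : ℕ × ℕ)], q.1 ≤ k ∧ k < q.1 + q.2 := by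
  intro k hk
  have hk : k < 243 := hk
  rcases (show (0 ≤ k ∧ k < 50) ∨ (50 ≤ k ∧ k < 100) ∨ (100 ≤ k ∧ k < 150) ∨ (150 ≤ k ∧ k < 200) ∨ (200 ≤ k ∧ k < 243) by omega) with h | h | h | h | h
  · exact ⟨(0, 50), by simp, h⟩
  · exact ⟨(50, 50), by simp, h⟩
  · exact ⟨(100, 50), by simp, h⟩
  · exact ⟨(150, 50), by simp, h⟩
  · exact ⟨(200, 43), by simp, h⟩

/-- Words of a commutator equal to a scalar. -/
def comA : List ℕ := [2]

/-- Words of a commutator equal to a scalar. -/
def comB : List ℕ := [2, 1, 1, 2, 1, 2]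

theorem com_check : beqL (evalW (comA ++ (comB ++ (winv comA ++ winv comB))) idCols)
    (rot 2 idCols) = true := by decide +kernel

end Cfsg.Agent.Lib.SchurMult.JThree
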