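import Cfsg.Agent.Lib.SchurMult.JThree.Data
import Cfsg.Agent.Lib.SchurMult.GolayEngine
import Cfsg.Agent.Lib.JankoThree.Simple

/-!
The multiplier certificates evaluated on coded matrices up to scalars.
-/

set_option autoImplicit false
set_option maxRecDepth 100000

namespace Cfsg.Agent.Lib.SchurMult.JThree

open Cfsg Cfsg.Spor Matrix Cfsg.Agent.Lib.JankoThree

/-- The word in the generators of a word in given generators. -/
def gword (gens : List (List ℕ)) (w : List ℕ) : List ℕ := w.flatMap fun i => gens.getD i []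

/-- All letters name generators. -/
def lettersOK (gens : List (List ℕ)) : Bool := gens.all fun w => w.all fun a => decide (a < 4)

/-- A scalar multiple of coded columns. -/
def rot : ℕ → List ℕ → List ℕ
  | 0, L => L
  | 1, L => mapAp 4 L
  | _, L => mapAp 5 L

/-- The packing of coded columns. -/
def pack (L : List ℕ) : ℕ := L.foldr (fun v acc => v + 262144 * acc) 0

/-- Two words agree up to a scalar. -/
def same (v w : List ℕ) : Bool :=
  (List.range 3).any fun k => beqL (evalW v idCols) (rot k (evalW w idCols))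

/-- The key of a word. -/
def key (w : List ℕ) : ℕ :=
  let L := evalW w idCols
  Nat.min (pack (rot 0 L)) (Nat.min (pack (rot 1 L)) (pack (rot 2 L)))

theorem gword_lt {gens : List (List ℕ)} (h : lettersOK gens = true) (w : List ℕ) :
    ∀ a ∈ gword gens w, a < 4 := by
  intro a ha
  obtain ⟨i, -, hi⟩ := List.mem_flatMap.1 ha
  simp only [lettersOK, List.all_eq_true, decide_eq_true_eq] at h
  rcases Nat.lt_or_ge i gens.length with hlt | hge
  · rw [List.getD_eq_getElem _ _ hlt] at hi
    exact h _ (List.getElem_mem _) a hi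
  · rw [List.getD_eq_default _ _ hge] at hi
    simp at hi

theorem getD_lt {conj : List (List ℕ)} (h : lettersOK conj = true) (k : ℕ) :
    ∀ a ∈ conj.getD k [], a < 4 := by
  simpa [gword] using gword_lt h [k]

variable {F : Type*} [Field F] [Fintype F] {ω : F} (h : Setup ω)

/-- The element of a word in the cover. -/
noncomputable def lift (w : List ℕ) : threeJ3 F ω := ⟨h.wordGL w, h.wordGL_mem w⟩

/-- The element of a word. -/
noncomputable def elt (w : List ℕ) : J3 F ω := QuotientGroup.mk' _ (lift h w)

theorem elt_append (v w : List ℕ) : elt h (v ++ w) = elt h v * elt h w := by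
  rw [elt, elt, elt, ← map_mul]
  exact congrArg _ (Subtype.ext (h.wordGL_append v w))

/-- The scalar element. -/
noncomputable def scal : threeJ3 F ω := ⟨h.exists_scalar.choose, h.exists_scalar.choose_spec.1⟩

theorem scal_val (k : ℕ) :
    (((scal h ^ k : threeJ3 F ω) : GL F9 F) : Matrix F9 F9 F) = ω ^ k • (1 : Matrix F9 F9 F) := by
  induction k with
  | zero => simp
  | succ k ih =>
    rw [pow_succ, Subgroup.coe_mul, Units.val_mul, ih]
    show _ * (h.exists_scalar.choose : Matrix F9 F9 F) = _
    rw [h.exists_scalar.choose_spec.2, smul_mul_smul_comm, mul_one, pow_succ]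

theorem scal_center (k : ℕ) : scal h ^ k ∈ Subgroup.center (threeJ3 F ω) :=
  Subgroup.mem_center_iff.2 fun x => Subtype.ext (Units.ext (by
    rw [Subgroup.coe_mul, Subgroup.coe_mul, Units.val_mul, Units.val_mul, scal_val]
    simp))

theorem scal_cube : scal h ^ 3 = 1 :=
  Subtype.ext (Units.ext (by
    rw [scal_val, h.omega_cube]
    simp))

theorem toMat_scal {K : Type*} [Field K] (μ : K) (d : ℕ) :
    toMat μ (cScal d) = phi μ d • (1 : Matrix F9 F9 K) := by
  ext w z
  simp only [toMat, Matrix.of_apply, cScal, ent2_mc, Matrix.smul_apply, Matrix.one_apply]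
  split_ifs <;> simp [phi]

theorem rep_rot {g : threeJ3 F ω} {L : List ℕ} (hL : Rep ω (g : GL F9 F) L) {k : ℕ} (hk : k < 3) :
    Rep ω ((scal h ^ k * g : threeJ3 F ω) : GL F9 F) (rot k L) := by
  obtain ⟨hl, hlt, hz⟩ := hL
  interval_cases k
  · rw [rot, pow_zero, one_mul]; exact ⟨hl, hlt, hz⟩
  all_goals
    simp only [rot, mapAp_eq]
    refine ⟨by simpa using hl, fun v hv => ?_, fun z => ?_⟩
    · obtain ⟨u, hu, rfl⟩ := List.mem_map.1 hv
      exact ap_lt (tab_small _ (by norm_num)) (hlt u hu)
    · have hlen : idx z < L.length := by rw [hl]; exact idx_lt z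
      rw [Subgroup.coe_mul, Units.val_mul, ← Matrix.mulVec_mulVec, hz z,
        List.getD_eq_getElem _ _ hlen, List.getD_eq_getElem _ _ (by simpa using hlen), List.getElem_map,
        h.vec_ap (small_gLit _ (by norm_num)) (tabOk _ (by norm_num)) (hlt _ (List.getElem_mem hlen)),
        scal_val]
      simp [gLit_scal.1, gLit_scal.2, toMat_scal, phi]

theorem center_cases {c : threeJ3 F ω} (hc : c ∈ Subgroup.center (threeJ3 F ω)) :
    ∃ j < 3, c = scal h ^ j := by
  obtain ⟨a, ha, e⟩ := h.central_scalar (g := (c : GL F9 F)) fun y hy =>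
    congrArg Subtype.val (Subgroup.mem_center_iff.1 hc ⟨y, hy⟩)
  obtain ⟨n, hn, rfl⟩ := h.phi_surj a
  interval_cases n
  · exact absurd rfl ha
  · exact ⟨0, by norm_num, Subtype.ext (Units.ext (by rw [scal_val, e]; simp [phi]))⟩
  · exact ⟨1, by norm_num, Subtype.ext (Units.ext (by rw [scal_val, e]; simp [phi]))⟩
  · exact ⟨2, by norm_num, Subtype.ext (Units.ext (by rw [scal_val, e]; simp [phi]))⟩

theorem rep_lift {w : List ℕ} (hw : ∀ a ∈ w, a < 4) :
    Rep ω ((lift h w : threeJ3 F ω) : GL F9 F) (evalW w idCols) := by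
  have := h.rep_eval (rep_one ω) hw
  rwa [mul_one] at this

theorem same_spec {v w : List ℕ} (hv : ∀ a ∈ v, a < 4) (hw : ∀ a ∈ w, a < 4)
    (hs : same v w = true) : elt h v = elt h w := by
  simp only [same, List.any_eq_true, List.mem_range] at hs
  obtain ⟨k, hk, e⟩ := hs
  have hr := rep_rot h (rep_lift h hw) hk
  rw [← beqL_eq e] at hr
  have e' : lift h v = scal h ^ k * lift h w := Subtype.ext ((rep_lift h hv).ext hr)
  rw [elt, elt, e', map_mul, QuotientGroup.mk'_apply, (QuotientGroup.eq_one_iff _).2 (scal_center h k),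
    one_mul]

theorem min3_rot (a b c : ℕ) : Nat.min b (Nat.min c a) = Nat.min a (Nat.min b c) ∧
    Nat.min c (Nat.min a b) = Nat.min a (Nat.min b c) := by
  simp only [Nat.min_def]
  split_ifs <;> omega

include h in
theorem key_congr {v w : List ℕ} (hv : ∀ a ∈ v, a < 4) (hw : ∀ a ∈ w, a < 4)
    (he : elt h v = elt h w) : key v = key w := by
  have hc : lift h v * (lift h w)⁻¹ ∈ Subgroup.center (threeJ3 F ω) := by
    rw [← QuotientGroup.eq_one_iff]
    show QuotientGroup.mk' _ (lift h v * (lift h w)⁻¹) = 1
    rw [map_mul, map_inv]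
    exact mul_inv_eq_one.2 he
  obtain ⟨j, hj, ej⟩ := center_cases h hc
  rw [mul_inv_eq_iff_eq_mul] at ej
  have key_rot : ∀ k < 3, rot k (evalW v idCols) = rot ((k + j) % 3) (evalW w idCols) := by
    intro k hk
    have h1 := rep_rot h (rep_lift h hv) hk
    have h2 := rep_rot h (rep_lift h hw) (Nat.mod_lt (k + j) (show 0 < 3 by norm_num))
    rw [ej, ← mul_assoc, ← pow_add, ← Nat.mod_add_div (k + j) 3, pow_add, pow_mul, scal_cube,
      one_pow, mul_one] at h1
    exact Rep.unique h h1 h2
  simp only [key]
  rw [key_rot 0 (by norm_num), key_rot 1 (by norm_num), key_rot 2 (by norm_num)]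
  interval_cases j
  · rfl
  · exact (min3_rot _ _ _).1
  · exact (min3_rot _ _ _).2

variable (D : Engine.Data) (gens conj : List (List ℕ)) (sorted keys : List ℕ)

/-- The relation checks on a range. -/
def relOK (lo len : ℕ) : Bool :=
  (List.range len).all fun k => same (gword gens (D.lhsAt (lo + k))) (gword gens (D.rhsAt (lo + k)))

/-- The key checks on a range. -/
def keyOK (lo len : ℕ) : Bool :=
  ((sorted.drop lo).take len).map (fun k => key (gword gens (D.word k))) == (keys.drop lo).take len

/-- The checks of the order of the keys. -/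
def sortOK : Bool :=
  decide (sorted.length = D.p ^ D.n) && sorted.all (fun k => decide (k < D.p ^ D.n)) &&
  decide (keys.length = sorted.length) && GolayEngine.increasing keys

/-- The check of an equation. -/
def eqnOK : Engine.Eqn → Bool
  | .cons _ _ => true
  | .fus k x y x' y' =>
    same (conj.getD k [] ++ gword gens x) (gword gens x' ++ conj.getD k []) &&
    same (conj.getD k [] ++ gword gens y) (gword gens y' ++ conj.getD k [])

variable {D gens conj sorted keys}

theorem ev_gword (w : List ℕ) : Engine.Data.ev (fun i => elt h (gens.getD i [])) w = elt h (gword gens w) := by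
  induction w with
  | nil => exact congrArg (QuotientGroup.mk' _) (Subtype.ext h.wordGL_nil.symm) |>.symm
  | cons i w ih =>
    simp only [Engine.Data.ev, List.map_cons, List.prod_cons, gword, List.flatMap_cons] at ih ⊢
    rw [ih, elt_append]

include h in
theorem bound {Γ : Type*} [Group Γ] [Finite Γ] [Finite (J3 F ω)] {σ : Γ →* J3 F ω}
    (hσ : Cfsg.IsStemExtension σ) {p : ℕ} [Fact p.Prime] (hp : D.p = p)
    (hall : D.allOK = true) (hg : lettersOK gens = true) (hc : lettersOK conj = true)
    (rparts : List (ℕ × ℕ)) (hrp : ∀ q ∈ rparts, relOK D gens q.1 q.2 = true)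
    (hrc : ∀ k < D.nv, ∃ q ∈ rparts, q.1 ≤ k ∧ k < q.1 + q.2)
    (hsort : sortOK D sorted keys = true)
    (kparts : List (ℕ × ℕ)) (hkp : ∀ q ∈ kparts, keyOK D gens sorted keys q.1 q.2 = true)
    (hkc : ∀ k < D.p ^ D.n, ∃ q ∈ kparts, q.1 ≤ k ∧ k < q.1 + q.2)
    (heq : D.eqs.all (eqnOK gens conj) = true)
    (hcard : (Nat.card (J3 F ω)).factorization p = D.n) {k : ℕ} (hk : p ^ k ∣ Nat.card σ.ker) :
    p ^ k ∣ D.bound := by
  simp only [sortOK, Bool.and_eq_true, List.all_eq_true, decide_eq_true_eq] at hsort
  obtain ⟨⟨⟨hlen, hlt⟩, hkl⟩, hinc0⟩ := hsort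
  simp only [List.all_eq_true] at heq
  have hrel : ∀ j < D.nv, same (gword gens (D.lhsAt j)) (gword gens (D.rhsAt j)) = true := fun j hj => by
    obtain ⟨q, hq, h1, h2⟩ := hrc j hj
    have hh := hrp q hq
    simp only [relOK, List.all_eq_true, List.mem_range] at hh
    have := hh (j - q.1) (by omega)
    rwa [show q.1 + (j - q.1) = j by omega] at this
  have hkeys : sorted.map (fun k => key (gword gens (D.word k))) = keys := by
    refine List.ext_getElem (by simp [hkl]) fun j h1 h2 => ?_
    rw [List.length_map, hlen] at h1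
    obtain ⟨q, hq, g1, g2⟩ := hkc j h1
    have hh := hkp q hq
    simp only [keyOK, beq_iff_eq] at hh
    have he := congrArg (fun l => l[j - q.1]?) hh
    simp only [List.getElem?_map, List.getElem?_take, if_pos (show j - q.1 < q.2 by omega),
      List.getElem?_drop, show q.1 + (j - q.1) = j by omega,
      List.getElem?_eq_getElem (show j < sorted.length by omega), List.getElem?_eq_getElem h2,
      Option.map_some, Option.some.injEq] at he
    simpa using he
  have hinc : GolayEngine.increasing (sorted.map fun k => key (gword gens (D.word k))) = true := by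
    rw [hkeys]; exact hinc0
  refine Engine.bound_main D hσ hp hall (fun i => elt h (gens.getD i [])) (fun i => elt h (conj.getD i []))
    (fun j hj => ?_) (fun a ha b hb hab => ?_) (fun e he => ?_) hcard hk
  · rw [ev_gword h, ev_gword h]
    exact same_spec h (gword_lt hg _) (gword_lt hg _) (hrel j hj)
  · have hpw := GolayEngine.pairwise_of_increasing _ hinc
    have hnd : sorted.Nodup := List.Nodup.of_map _ (hpw.imp fun h => h.ne)
    have hperm : ∀ c, c < D.p ^ D.n → c ∈ sorted := by
      intro c hc
      have hsub : sorted.toFinset ⊆ Finset.range (D.p ^ D.n) := fun x hx =>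
        Finset.mem_range.2 (hlt x (List.mem_toFinset.1 hx))
      have := Finset.eq_of_subset_of_card_le hsub (by
        rw [List.toFinset_card_of_nodup hnd, hlen, Finset.card_range])
      rw [← List.mem_toFinset, this, Finset.mem_range]
      exact hc
    rw [ev_gword h, ev_gword h] at hab
    exact List.inj_on_of_nodup_map (hpw.imp fun h => h.ne) (hperm a ha) (hperm b hb)
      (key_congr h (gword_lt hg _) (gword_lt hg _) hab)
  · rcases e with ⟨u, v⟩ | ⟨j, x, y, x', y'⟩
    · trivial
    · have hh := heq _ he
      simp only [eqnOK, Bool.and_eq_true] at hh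
      refine ⟨?_, ?_⟩ <;> rw [ev_gword h, ev_gword h, ← elt_append, ← elt_append]
      · exact same_spec h (List.forall_mem_append.2 ⟨getD_lt hc j, gword_lt hg x⟩)
          (List.forall_mem_append.2 ⟨gword_lt hg x', getD_lt hc j⟩) hh.1
      · exact same_spec h (List.forall_mem_append.2 ⟨getD_lt hc j, gword_lt hg y⟩)
          (List.forall_mem_append.2 ⟨gword_lt hg y', getD_lt hc j⟩) hh.2

end Cfsg.Agent.Lib.SchurMult.JThree
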