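import Cfsg.Agent.Lib.SchurMult.JThree.Checks
import Cfsg.Agent.Lib.SchurMult.MathieuCommon
import Cfsg.Agent.Lib.SchurMult.CyclicBound

/-! The multiplier of the third Janko group is cyclic of order three. -/

set_option autoImplicit false
set_option maxRecDepth 100000

namespace Cfsg.Agent.Lib.SchurMult.JThree

open Cfsg Cfsg.Spor Cfsg.Agent.Lib.JankoThree
open scoped commutatorElement

variable {F : Type*} [Field F] [Fintype F] {ω : F}

theorem ker_le_commutator (h : Setup ω) :
    Subgroup.center (threeJ3 F ω) ≤ commutator (threeJ3 F ω) := by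
  have hs : scal h ^ 2 ∈ commutator (threeJ3 F ω) := by
    have hA : ∀ a ∈ comA, a < 4 := by decide
    have hB : ∀ a ∈ comB, a < 4 := by decide
    obtain ⟨eA, hA'⟩ := h.wordGL_winv hA
    obtain ⟨eB, hB'⟩ := h.wordGL_winv hB
    have hw : ∀ a ∈ comA ++ (comB ++ (winv comA ++ winv comB)), a < 4 :=
      List.forall_mem_append.2 ⟨hA, List.forall_mem_append.2 ⟨hB, List.forall_mem_append.2 ⟨hA', hB'⟩⟩⟩
    have h1 := rep_lift h hw
    rw [beqL_eq com_check] at h1
    have h2 := rep_rot h (g := 1) (by simpa using rep_one ω) (k := 2) (by norm_num)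
    rw [mul_one] at h2
    have e : scal h ^ 2 = ⁅lift h comA, lift h comB⁆ := Subtype.ext (by
      rw [← h1.ext h2]
      show h.wordGL (comA ++ (comB ++ (winv comA ++ winv comB))) = _
      rw [h.wordGL_append, h.wordGL_append, h.wordGL_append, eA, eB, commutatorElement_def]
      simp [lift, mul_assoc])
    rw [e]
    exact Subgroup.commutator_mem_commutator (Subgroup.mem_top _) (Subgroup.mem_top _)
  intro c hc
  obtain ⟨j, -, rfl⟩ := center_cases h hc
  have e : scal h = scal h ^ 2 * scal h ^ 2 := by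
    rw [← pow_add, pow_succ _ 3, scal_cube, one_mul]
  exact pow_mem (e ▸ mul_mem hs hs) j

theorem hasThree (h : Setup ω) : Cfsg.HasCyclicSchurMultiplier (J3 F ω) 3 := by
  classical
  have hc : Nat.card (J3 F ω) = 2 ^ 7 * 3 ^ 5 * 5 * 17 * 19 := h.card_quot.trans (by norm_num)
  have : Finite (J3 F ω) := Nat.finite_of_card_ne_zero (by rw [hc]; norm_num)
  refine SchurMult.hasCyclic_of_cover (QuotientGroup.mk' (Subgroup.center (threeJ3 F ω)))
    (MulEquiv.refl _) ⟨QuotientGroup.mk'_surjective _, ?_, ?_⟩ Nat.prime_three.squarefree ?_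
    fun Δ _ _ τ hτ => ?_
  · rw [QuotientGroup.ker_mk']
  · rw [QuotientGroup.ker_mk']; exact ker_le_commutator h
  · rw [QuotientGroup.ker_mk']; exact h.card_center
  refine (Nat.dvd_iff_prime_pow_dvd_dvd _ _).2 fun r k hr hk => ?_
  have := Fact.mk hr
  by_cases h2 : r = 2
  · subst h2
    exact (bound (h := h) (p := 2) hτ rfl allTwo lettersTwo.1 lettersTwo.2 _ relTwo
      (fun k hk => ⟨(0, 28), List.mem_singleton_self _, Nat.zero_le _, (hk : k < 28)⟩) sortTwo _ keyTwo coverTwo eqnTwo
      (Mathieu.factorization_of (r := 392445) Nat.prime_two (by rw [hc]; rfl) (by decide)) hk).trans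
      (one_dvd 3)
  by_cases h3 : r = 3
  · subst h3
    exact bound (h := h) (p := 3) hτ rfl allThree lettersThree.1 lettersThree.2 _ relThree
      (fun k hk => ⟨(0, 15), List.mem_singleton_self _, Nat.zero_le _, (hk : k < 15)⟩) sortThree _ keyThree coverThree
      eqnThree
      (Mathieu.factorization_of (r := 206720) Nat.prime_three (by rw [hc]; rfl) (by decide)) hk
  rcases Nat.eq_zero_or_pos k with rfl | hk0
  · simp
  exfalso
  refine SchurMult.not_dvd_ker_of_sq hτ ?_ ((dvd_pow_self r hk0.ne').trans hk)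
  rw [hc]
  intro hd
  have hco : Nat.Coprime (r ^ 2) (2 ^ 7 * 3 ^ 5) :=
    (((Nat.coprime_primes hr Nat.prime_two).2 h2).pow 2 7).mul_right
      (((Nat.coprime_primes hr Nat.prime_three).2 h3).pow 2 5)
  have hd2 : r ^ 2 ∣ 5 * 17 * 19 := hco.dvd_of_dvd_mul_left (by rwa [mul_assoc, mul_assoc] at hd ⊢)
  exact hr.ne_one (Nat.isUnit_iff.1 ((by decide +kernel : Squarefree (5 * 17 * 19)) r (by rwa [← pow_two])))

end Cfsg.Agent.Lib.SchurMult.JThree
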